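import Cfsg.Agent.H97.JmDefs
import Cfsg.Agent.H33.J4Odd1

/-!
# Maximal subgroups of the fourth Janko group: the normaliser of a Sylow 11-subgroup
-/

set_option autoImplicit false

namespace Cfsg.Agent.H97.JM

open Subgroup Cfsg.Agent.H33.J4O

universe u

theorem C11.num : allD (fun n => n % 319440 != 0 || n / 319440 % 1331 != 1 || !ok n ||
    n == 319440 || n == 146507102945280 || n == 688128 * 319440 || n == 97744673832960 ||
    n == 86775571046077562880) = true := by decide +kernel

theorem pC11 (hALLD : ALLD) (hOK : OK.{u}) (hTI : TI.{u}) (hCONG : CONG.{u}) (hNC : NC.{u})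
    (hFR : FR.{u}) : C11.{u} := by
  intro G _ _ c U h29 hex
  haveI : Fact (Nat.Prime 11) := ⟨by norm_num⟩
  obtain ⟨cU, cM⟩ := c.n11 U
  refine ⟨fun h => ?_, fun H hH => ?_⟩
  · rw [h, card_top, c.card] at cM; omega
  have hd : Nat.card H ∣ 86775571046077562880 := c.card ▸ H.card_subgroup_dvd_card
  have hUH : (U : Subgroup G) ≤ H := le_normalizer.trans hH.le
  have t := hTI G c U H hUH
  rw [inf_eq_right.2 hH.le, cM] at t
  have dM : 319440 ∣ Nat.card H := cM ▸ card_dvd_of_le hH.le
  have k := hALLD _ C11.num _ hd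
  simp only [hOK G c H, t, Nat.mod_eq_zero_of_dvd dM, bne_self_eq_false, Bool.not_true,
    Bool.false_or, Bool.or_eq_true, beq_iff_eq] at k
  rcases k with (((k | k) | k) | k) | k
  · exact absurd (eq_of_le_of_card_ge hH.le (by rw [k, cM])) hH.ne
  · exfalso
    obtain ⟨a, ha, oa⟩ := exists_ord (A := H) (p := 31) (by norm_num) (by rw [k]; norm_num)
    obtain ⟨ca, na⟩ := c.big 31 10 (by simp) a oa
    obtain ⟨d, d1, d2, d3, d4⟩ := hCONG G H 31 10 a (by norm_num) ha oa (by rw [k]; norm_num) na
    rw [k] at d3 d4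
    have d5 : d = 1 := by
      have := Nat.le_of_dvd (by norm_num) d2
      interval_cases d <;> simp_all
    have e : zpowers a = H ⊓ normalizer ((zpowers a : Subgroup G) : Set G) :=
      eq_of_le_of_card_ge (le_inf (zpowers_le.2 ha) le_normalizer)
        (by rw [d1, d5, Nat.card_zpowers, oa])
    obtain ⟨R, r1, r2, r3, -⟩ := hNC G H 31 a (by norm_num) ha oa (by rw [← e, ca]) fun h => by
      have := h.trans (card_dvd_of_le (inf_le_left : H ⊓ centralizer ({a} : Set G) ≤ H))
      rw [k] at this; norm_num at this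
    have hUR : (U : Subgroup G) ≤ R := fun v hv => by
      haveI : (R.subgroupOf H).Normal := (normal_subgroupOf_iff_le_normalizer r1).2 r2
      have i : (R.subgroupOf H).index = 31 := by
        have m := (R.subgroupOf H).card_mul_index
        rw [Nat.card_congr (subgroupOfEquivOfLe r1).toEquiv, r3, mul_comm] at m
        exact Nat.eq_of_mul_eq_mul_right Nat.card_pos m
      have p1 : v ^ 31 ∈ R := by
        have := (R.subgroupOf H).pow_index_mem ⟨v, hUH hv⟩
        rwa [i] at this
      refine mem_of_pow (m := 31) (n := 1331) (by norm_num) p1 ?_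
      rw [← cU, pow_card hv]; exact R.one_mem
    have f := hFR G 11 U R H hUR r1 r2
    rw [cM, r3, mul_comm 31] at f
    have := Nat.dvd_of_mul_dvd_mul_left Nat.card_pos f
    norm_num at this
  · exact absurd k (hex H hH.le)
  · exfalso
    obtain ⟨a, ha, oa⟩ := exists_ord (A := H) (p := 29) (by norm_num) (by rw [k]; norm_num)
    obtain ⟨-, na⟩ := c.big 29 28 (by simp) a oa
    obtain ⟨d, d1, d2, d3, d4⟩ := hCONG G H 29 28 a (by norm_num) ha oa (by rw [k]; norm_num) na
    rw [k] at d3 d4
    have d5 : d = 28 := by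
      have := Nat.le_of_dvd (by norm_num) d2
      interval_cases d <;> simp_all
    have e : H ⊓ normalizer ((zpowers a : Subgroup G) : Set G) =
        normalizer ((zpowers a : Subgroup G) : Set G) :=
      eq_of_le_of_card_ge inf_le_right (by rw [d1, d5, na])
    rcases (h29 a oa).le_iff.1 (inf_eq_right.1 e) with h | h
    · rw [h, card_top, c.card] at k; omega
    · rw [h, na] at k; omega
  · exact eq_top_of_card_eq H (k.trans c.card.symm)

end Cfsg.Agent.H97.JM
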