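import Cfsg.Agent.H17.LPDefs

/-! Project LP: overgroups of the unitriangular group in `SL₅(2)`. -/

set_option autoImplicit false

namespace Cfsg.Agent.H98.LpWtPar

open Cfsg.Agent.H17.LP Matrix

/-- root elements with indices `0, …, 4` -/
def Y (p q : Fin 5) : SL5 := X (p.1 + 1) (q.1 + 1)

theorem Y_comm : ∀ p q r : Fin 5, p ≠ q → q ≠ r → p ≠ r →
    (Y p r).1 = (Y p q).1 * (Y q r).1 * (Y p q).1 * (Y q r).1 := by decide +kernel

theorem Y_sq : ∀ p q : Fin 5, (Y p q).1 * (Y p q).1 = 1 := by decide +kernel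

theorem Y_val : ∀ p q : Fin 5, p ≠ q →
    (Y p q).1 = 1 + vecMulVec (Pi.single p 1) (Pi.single q 1) := by decide +kernel

theorem Y_inv (p q : Fin 5) : (Y p q)⁻¹ = Y p q :=
  inv_eq_of_mul_eq_one_right (Subtype.ext (Y_sq p q))

theorem mem_comm {P : Subgroup SL5} {p q r : Fin 5} (h1 : p ≠ q) (h2 : q ≠ r) (h3 : p ≠ r)
    (a : Y p q ∈ P) (b : Y q r ∈ P) : Y p r ∈ P := by
  rw [show Y p r = Y p q * Y q r * Y p q * Y q r from Subtype.ext (Y_comm p q r h1 h2 h3)]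
  exact P.mul_mem (P.mul_mem (P.mul_mem a b) a) b

theorem upper {P : Subgroup SL5} (h : ∀ i ∈ [1, 2, 3, 4], X i (i + 1) ∈ P) :
    ∀ p q : Fin 5, p < q → Y p q ∈ P := by
  have h01 : Y 0 1 ∈ P := h 1 (by simp)
  have h12 : Y 1 2 ∈ P := h 2 (by simp)
  have h23 : Y 2 3 ∈ P := h 3 (by simp)
  have h34 : Y 3 4 ∈ P := h 4 (by simp)
  have h02 := mem_comm (by decide) (by decide) (by decide) h01 h12
  have h13 := mem_comm (by decide) (by decide) (by decide) h12 h23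
  have h24 := mem_comm (by decide) (by decide) (by decide) h23 h34
  have h03 := mem_comm (by decide) (by decide) (by decide) h02 h23
  have h14 := mem_comm (by decide) (by decide) (by decide) h13 h34
  have h04 := mem_comm (by decide) (by decide) (by decide) h03 h34
  intro p q hpq
  fin_cases p <;> fin_cases q <;> first | assumption | exact absurd hpq (by decide)

/-- the transvection with the given centre and axis lies in `P` -/
def Q (P : Subgroup SL5) (u f : Fin 5 → F) : Prop := ∃ g ∈ P, g.1 = 1 + vecMulVec u f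

theorem Q.conj {P : Subgroup SL5} {u f : Fin 5 → F} (h : Q P u f) {g : SL5} (hg : g ∈ P) :
    Q P (g.1 *ᵥ u) (f ᵥ* (g⁻¹).1) := by
  obtain ⟨t, ht, e⟩ := h
  refine ⟨g * t * g⁻¹, P.mul_mem (P.mul_mem hg ht) (P.inv_mem hg), ?_⟩
  have h1 : g.1 * (g⁻¹).1 = 1 := by rw [← coe_mul', mul_inv_cancel]; rfl
  rw [coe_mul', coe_mul', e, Matrix.mul_add, Matrix.add_mul, Matrix.mul_one, h1, mul_vecMulVec,
    vecMulVec_mul]

def Cond (i : ℕ) (u f : Fin 5 → F) : Prop :=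
  (∃ c : Fin 5, i ≤ c.1 ∧ u c ≠ 0) ∧ (∃ d : Fin 5, d.1 < i ∧ f d ≠ 0) ∧ f ⬝ᵥ u = 0

instance (i : ℕ) (u f : Fin 5 → F) : Decidable (Cond i u f) := by unfold Cond; infer_instance

def ht (u f : Fin 5 → F) : ℕ := 8 * ∑ i, (u i).val + ∑ i, (f i).val

def Stp (i : ℕ) (u f : Fin 5 → F) : Prop := Cond i u f →
  (∃ c d : Fin 5, d.1 < i ∧ i ≤ c.1 ∧ u = Pi.single c 1 ∧ f = Pi.single d 1) ∨
    ∃ p q : Fin 5, p < q ∧ ht ((Y p q).1 *ᵥ u) (f ᵥ* (Y p q).1) < ht u f ∧
      Cond i ((Y p q).1 *ᵥ u) (f ᵥ* (Y p q).1)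

instance (i : ℕ) (u f : Fin 5 → F) : Decidable (Stp i u f) := by unfold Stp; infer_instance

set_option synthInstance.maxSize 2000 in
theorem step : ∀ i ∈ [1, 2, 3, 4], ∀ a0 a1 a2 a3 a4 b0 b1 b2 b3 b4 : F,
    Stp i ![a0, a1, a2, a3, a4] ![b0, b1, b2, b3, b4] := by
  decide +kernel

theorem vec_eq (u : Fin 5 → F) : ![u 0, u 1, u 2, u 3, u 4] = u := by
  funext i; fin_cases i <;> rfl

theorem reduce {P : Subgroup SL5} (up : ∀ p q : Fin 5, p < q → Y p q ∈ P) {i : ℕ}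
    (hi : i ∈ [1, 2, 3, 4]) (n : ℕ) : ∀ u f, ht u f = n → Cond i u f → Q P u f →
    ∃ c d : Fin 5, d.1 < i ∧ i ≤ c.1 ∧ Y c d ∈ P := by
  induction n using Nat.strong_induction_on with
  | _ n ih =>
    intro u f hn hc hq
    have s := step i hi (u 0) (u 1) (u 2) (u 3) (u 4) (f 0) (f 1) (f 2) (f 3) (f 4)
    rw [vec_eq, vec_eq] at s
    rcases s hc with ⟨c, d, h1, h2, rfl, rfl⟩ | ⟨p, q, h1, h2, h3⟩
    · obtain ⟨g, hg, e⟩ := hq
      refine ⟨c, d, h1, h2, ?_⟩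
      rwa [show Y c d = g from Subtype.ext
        ((Y_val c d (by rintro rfl; omega)).trans e.symm)]
    · have := hq.conj (up p q h1)
      rw [Y_inv] at this
      exact ih _ (hn ▸ h2) _ _ rfl h3 this

theorem blk_mul {i : ℕ} {g h : SL5} (hg : ∀ a b : Fin 5, (b : ℕ) < i → i ≤ (a : ℕ) → g.1 a b = 0)
    (hh : ∀ a b : Fin 5, (b : ℕ) < i → i ≤ (a : ℕ) → h.1 a b = 0) :
    ∀ a b : Fin 5, (b : ℕ) < i → i ≤ (a : ℕ) → (g * h).1 a b = 0 := by
  intro a b hb ha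
  rw [coe_mul', Matrix.mul_apply]
  refine Finset.sum_eq_zero fun k _ => ?_
  by_cases hk : (k : ℕ) < i
  · rw [hg a k hk ha, zero_mul]
  · rw [hh k b hb (not_lt.1 hk), mul_zero]

theorem blk_inv {i : ℕ} {g : SL5} (hg : ∀ a b : Fin 5, (b : ℕ) < i → i ≤ (a : ℕ) → g.1 a b = 0) :
    ∀ a b : Fin 5, (b : ℕ) < i → i ≤ (a : ℕ) → (g⁻¹).1 a b = 0 := by
  have h := orderOf_pos g
  have e : g⁻¹ = g ^ (orderOf g - 1) := by
    rw [inv_eq_iff_mul_eq_one, ← pow_succ', Nat.sub_add_cancel h, pow_orderOf_eq_one]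
  rw [e]
  generalize orderOf g - 1 = n
  induction n with
  | zero =>
    intro a b hb ha
    exact Matrix.one_apply_ne (by rintro rfl; omega)
  | succ n ih =>
    rw [pow_succ]
    exact blk_mul ih hg

theorem wtPar : WtParStmt := by
  intro P hP i hi hX g hg a b hb ha
  have up := upper hP
  by_contra hne
  have : ¬ ∀ a b : Fin 5, (b : ℕ) < i → i ≤ (a : ℕ) → (g⁻¹).1 a b = 0 := fun h =>
    hne (by simpa using blk_inv h a b hb ha)
  push Not at this
  obtain ⟨q, d, hd, hq, hqd⟩ := this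
  have hbq : b < q := by rw [Fin.lt_def]; omega
  have h1 : Q P (Pi.single b 1) (Pi.single q 1) := ⟨_, up b q hbq, Y_val b q hbq.ne⟩
  have h2 : (g⁻¹).1 * g.1 = 1 := by rw [← coe_mul', inv_mul_cancel]; rfl
  obtain ⟨c, d, h3, h4, h5⟩ := reduce up hi _ _ _ rfl ⟨⟨a, ha, by simpa using hne⟩,
    ⟨d, hd, by simpa using hqd⟩, by
      rw [← dotProduct_mulVec, mulVec_mulVec, h2, one_mulVec]
      simp [hbq.ne']⟩ (h1.conj hg)
  have i4 : 1 ≤ i ∧ i ≤ 4 := by
    simp only [List.mem_cons, List.not_mem_nil, or_false] at hi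
    omega
  have h6 : Y ⟨i, by omega⟩ d ∈ P := by
    by_cases e : c = ⟨i, by omega⟩
    · exact e ▸ h5
    · have : i < c.1 := lt_of_le_of_ne h4 fun h => e (Fin.ext h.symm)
      exact mem_comm (Ne.symm e) (by rintro rfl; omega) (fun h => by have := congrArg Fin.val h; simp only at this; omega)
        (up _ c this) h5
  have h7 : Y ⟨i, by omega⟩ ⟨i - 1, by omega⟩ ∈ P := by
    by_cases e : d = ⟨i - 1, by omega⟩
    · exact e ▸ h6
    · have : d.1 < i - 1 := lt_of_le_of_ne (by omega) fun h => e (Fin.ext h)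
      exact mem_comm (fun h => by have := congrArg Fin.val h; simp only at this; omega) e (by simp only [ne_eq, Fin.mk.injEq]; omega) h6
        (up d _ this)
  apply hX
  have e : X (i + 1) i = Y ⟨i, by omega⟩ ⟨i - 1, by omega⟩ := by
    show _ = X (i + 1) (i - 1 + 1)
    rw [Nat.sub_add_cancel i4.1]
  exact e ▸ h7

end Cfsg.Agent.H98.LpWtPar
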