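import Cfsg.Agent.H26.PInst
import Cfsg.Agent.H85.ModBasic

/-!
Symplectic and unitary groups: generation by Eichler transformations relative to a
non-degenerate subspace, unipotent radicals, fixed vectors of `p`-subgroups.
-/

set_option autoImplicit false

namespace Cfsg.Agent.H98.PFC

open Cfsg Module Cfsg.Agent.H26 Cfsg.Agent.H26.PForm

variable {F : Type*} [Field F] {V : Type*} [AddCommGroup V] [Module F V] {P : PForm F V}

/-- The form parameter is maximal and non-zero (symplectic and unitary geometry). -/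
structure Max (P : PForm F V) : Prop where
  max : ∀ a, a + P.ε * P.σ a = 0 → a ∈ P.Λ
  d_le : P.d ≤ 2
  ne : ∃ ν ∈ P.Λ, ν ≠ 0
  rep : ∀ x y, P.f x y ≠ 0 → ∀ ν, ∃ a b : F, ν - P.h (a • x + b • y) ∈ P.Λ
  span : ∀ ν ∈ P.Λ, ν ≠ 0 → ∀ A : AddSubgroup F, (∀ c, c * P.σ c * ν ∈ A) → P.Λ ≤ A

theorem Max.sing (hP : Max P) {x : V} (h : P.f x x = 0) : P.Sing x :=
  hP.max _ (by rw [← P.f_self, h])

variable (P) in
/-- The elements of `E` fixing `D` pointwise. -/
def fixE (D : Submodule F V) : Subgroup (V ≃ₗ[F] V) where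
  carrier := {g | g ∈ P.E ∧ ∀ d ∈ D, g d = d}
  one_mem' := ⟨P.E.one_mem, fun _ _ => rfl⟩
  mul_mem' {g k} hg hk := ⟨P.E.mul_mem hg.1 hk.1, fun d hd => by rw [mul_apply', hk.2 d hd, hg.2 d hd]⟩
  inv_mem' {g} hg := ⟨P.E.inv_mem hg.1, fun d hd => by
    conv_lhs => rw [← hg.2 d hd]
    exact inv_apply_apply g d⟩

variable (P) in
/-- The group generated by the Eichler transformations of `D^⊥`. -/
def ED (D : Submodule F V) : Subgroup (V ≃ₗ[F] V) :=
  Subgroup.closure {g | ∃ (e y : V) (ν : F) (h : P.EV e y ν), e ∈ P.perp D ∧ y ∈ P.perp D ∧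
    h.equiv = g}

theorem equiv_mem_ED {D : Submodule F V} {e y : V} {ν : F} (h : P.EV e y ν) (he : e ∈ P.perp D)
    (hy : y ∈ P.perp D) : h.equiv ∈ ED P D := Subgroup.subset_closure ⟨e, y, ν, h, he, hy, rfl⟩

theorem ED_le {D : Submodule F V} {M : Subgroup (V ≃ₗ[F] V)}
    (h : ∀ e y ν (h : P.EV e y ν), e ∈ P.perp D → y ∈ P.perp D → h.equiv ∈ M) : ED P D ≤ M := by
  refine (Subgroup.closure_le _).2 ?_
  rintro _ ⟨e, y, ν, h', he, hy, rfl⟩
  exact h e y ν h' he hy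

theorem equiv_mem_fixE {D : Submodule F V} {e y : V} {ν : F} (h : P.EV e y ν) (he : e ∈ P.perp D)
    (hy : y ∈ P.perp D) : h.equiv ∈ fixE P D :=
  ⟨h.equiv_mem_E, fun _ hd => P.eich_apply_of_orth₂ ν (f_of_mem_perp' he hd) (f_of_mem_perp' hy hd)⟩

theorem ED_le_fixE (D : Submodule F V) : ED P D ≤ fixE P D := ED_le fun _ _ _ => equiv_mem_fixE

theorem ED_anti {D D' : Submodule F V} (h : D ≤ D') : ED P D' ≤ ED P D :=
  ED_le fun _ _ _ h' he hy => equiv_mem_ED h' (perp_anti h he) (perp_anti h hy)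

theorem apply_mem_perp {D : Submodule F V} {g : V ≃ₗ[F] V} (hg : g ∈ P.isom)
    (h : ∀ d ∈ D, g d = d) {x : V} (hx : x ∈ P.perp D) : g x ∈ P.perp D := fun d hd => by
  rw [← h d hd, isom_f hg, hx d hd]

theorem exists_ED_map {D : Submodule F V} {x x' z : V} (hx : P.Sing x) (hx' : P.Sing x')
    (hz : P.Sing z) (hxD : x ∈ P.perp D) (hx'D : x' ∈ P.perp D) (hzD : z ∈ P.perp D)
    (h : P.f x z ≠ 0) (h' : P.f x' z = P.f x z) : ∃ k ∈ ED P D, k x = x' ∧ k z = z := by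
  have h1 := f_smul_inv h
  have h2 : P.f x' (P.σ (P.f x z)⁻¹ • z) = 1 := by rw [← h']; exact f_smul_inv (h'.symm ▸ h)
  obtain ⟨h3, h4⟩ := exists_eich_map (hz.smul _) hx hx' h1 h2
  refine ⟨_, equiv_mem_ED h3 (Submodule.smul_mem _ _ hzD) (Submodule.sub_mem _ hx'D hxD), h4, ?_⟩
  have h5 : h3.equiv _ = _ := h3.eich_self
  rw [map_smul] at h5
  exact smul_right_injective V (P.σ_ne_zero (inv_ne_zero h)) h5

variable (P) in
/-- `x` is mapped to `x'` by the Eichler transformations of `D^⊥`. -/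
def Reach (D : Submodule F V) (x x' : V) : Prop := ∃ k ∈ ED P D, k x = x'

theorem Reach.symm {D : Submodule F V} {x x' : V} (h : Reach P D x x') : Reach P D x' x := by
  obtain ⟨k, hk, rfl⟩ := h
  exact ⟨k⁻¹, (ED P D).inv_mem hk, inv_apply_apply k x⟩

theorem Reach.trans {D : Submodule F V} {x y z : V} (h : Reach P D x y) (h' : Reach P D y z) :
    Reach P D x z := by
  obtain ⟨k, hk, rfl⟩ := h
  obtain ⟨l, hl, rfl⟩ := h'
  exact ⟨l * k, (ED P D).mul_mem hl hk, rfl⟩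

theorem Reach.smul {D : Submodule F V} {x y : V} (h : Reach P D x y) (c : F) :
    Reach P D (c • x) (c • y) := by
  obtain ⟨k, hk, rfl⟩ := h
  exact ⟨k, hk, map_smul k c x⟩

theorem reach_of_f {D : Submodule F V} {x x' z : V} (hx : P.Sing x) (hx' : P.Sing x')
    (hz : P.Sing z) (hxD : x ∈ P.perp D) (hx'D : x' ∈ P.perp D) (hzD : z ∈ P.perp D)
    (h : P.f x z ≠ 0) (h' : P.f x' z = P.f x z) : Reach P D x x' := by
  obtain ⟨k, hk, h1, -⟩ := exists_ED_map hx hx' hz hxD hx'D hzD h h'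
  exact ⟨k, hk, h1⟩

theorem reach_opp {D : Submodule F V} {e e' y : V} {ν : F} (he : P.Sing e) (heD : e ∈ P.perp D)
    (he'D : e' ∈ P.perp D) (hyD : y ∈ P.perp D) (h1 : P.f e' e = 1) (h : P.EV e' y ν)
    (hy : P.f y e = 0) (hν : ν ≠ 0) : Reach P D e (-ν • e') := by
  have h2 : P.f (P.eich e' y ν e) e = -ν := by
    rw [eich_apply, f_sub_left, P.f_add_left, P.f_smul_left, P.f_smul_left, he.f_self, hy, h1,
      f_symm_zero hy, f_symm_one h1]
    linear_combination (-ν) * P.ε_sq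
  refine Reach.trans ⟨_, equiv_mem_ED h he'D hyD, rfl⟩ (reach_of_f (h.sing_eich he) (h.sing.smul _)
    he (EV.eich_mem he'D hyD heD) (Submodule.smul_mem _ _ he'D) heD ?_ ?_)
  · rw [EV.equiv_apply, h2]; exact neg_ne_zero.2 hν
  · rw [EV.equiv_apply, h2, P.f_smul_left, h1, mul_one]

theorem reach_smul {D : Submodule F V} {e e' y₁ y₂ : V} {ν c : F} (he : P.Sing e)
    (heD : e ∈ P.perp D) (he'D : e' ∈ P.perp D) (h1 : P.f e' e = 1) (hy₁D : y₁ ∈ P.perp D)
    (hy₂D : y₂ ∈ P.perp D) (h₁ : P.EV e' y₁ ν) (h₂ : P.EV e' y₂ (c * ν)) (hy₁ : P.f y₁ e = 0)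
    (hy₂ : P.f y₂ e = 0) (hν : ν ≠ 0) (hc : c ≠ 0) : Reach P D (c • e) e := by
  have h3 := (reach_opp he heD he'D hy₁D h1 h₁ hy₁ hν).smul c
  rw [smul_smul, mul_neg] at h3
  exact h3.trans (reach_opp he heD he'D hy₂D h1 h₂ hy₂ (mul_ne_zero hc hν)).symm

theorem disjoint_hyp {D : Submodule F V} (hD : Disjoint D (P.perp D)) {e e' : V} (he : P.Sing e)
    (he' : P.Sing e') (heD : e ∈ P.perp D) (he'D : e' ∈ P.perp D) (h1 : P.f e' e = 1) :
    Disjoint ((D ⊔ F ∙ e) ⊔ F ∙ e') (P.perp ((D ⊔ F ∙ e) ⊔ F ∙ e')) := by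
  rw [Submodule.disjoint_def] at hD ⊢
  intro x hx hx'
  obtain ⟨_, hs, b, rfl⟩ := mem_sup_span.1 hx
  obtain ⟨d, hd, a, rfl⟩ := mem_sup_span.1 hs
  obtain ⟨⟨h2, h3⟩, h4⟩ := (and_congr_left' mem_perp_sup_span).1 (mem_perp_sup_span.1 hx')
  simp only [P.f_add_left, P.f_smul_left, he.f_self, he'.f_self, h1, f_symm_one h1,
    f_of_mem_perp' heD hd, f_of_mem_perp' he'D hd, mul_zero, mul_one, zero_add, add_zero,
    mul_eq_zero, P.ε_ne_zero, or_false] at h3 h4
  subst h3 h4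
  simp only [zero_smul, add_zero] at h2 ⊢
  exact hD d hd h2

theorem fix_hyp {D : Submodule F V} {e e' : V} {g : V ≃ₗ[F] V} (h : ∀ d ∈ D, g d = d)
    (he : g e = e) (he' : g e' = e') : ∀ d ∈ (D ⊔ F ∙ e) ⊔ F ∙ e', g d = d := by
  intro x hx
  obtain ⟨_, hs, b, rfl⟩ := mem_sup_span.1 hx
  obtain ⟨d, hd, a, rfl⟩ := mem_sup_span.1 hs
  simp only [map_add, map_smul, h d hd, he, he']

variable [FiniteDimensional F V]

theorem finrank_perp_hyp_lt {D : Submodule F V} {e e' : V} (heD : e ∈ P.perp D)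
    (h1 : P.f e' e = 1) : finrank F (P.perp ((D ⊔ F ∙ e) ⊔ F ∙ e')) < finrank F (P.perp D) := by
  refine Submodule.finrank_lt_finrank_of_lt (lt_of_le_of_ne
    (perp_anti (le_sup_left.trans le_sup_left)) fun h => ?_)
  rw [← h, mem_perp_sup_span, f_symm_one h1] at heD
  exact P.ε_ne_zero heD.2

theorem exists_add_of_disjoint {D : Submodule F V} (hD : Disjoint D (P.perp D)) (x : V) :
    ∃ d ∈ D, ∃ y ∈ P.perp D, d + y = x := by
  have : D ⊔ P.perp D = ⊤ := Submodule.eq_top_of_disjoint _ _ (P.finrank_perp D).ge hD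
  exact Submodule.mem_sup.1 (this ▸ Submodule.mem_top)

theorem Max.reach (hP : Max P) {D : Submodule F V} {x x' : V} (hx : P.Sing x) (hx' : P.Sing x')
    (hxD : x ∈ P.perp D) (hx'D : x' ∈ P.perp D) (h : x ∉ D) (h' : x' ∉ D) :
    ∃ c : F, c ≠ 0 ∧ Reach P D x (c • x') := by
  obtain ⟨z, hzD, hz, h1, h2⟩ : ∃ z ∈ P.perp D, P.Sing z ∧ P.f x z ≠ 0 ∧ P.f x' z ≠ 0 := by
    by_cases h0 : P.f x' x = 0
    · exact exists_sing_ne_ne hxD h h' hx h0
    obtain ⟨ν, hν, hν0⟩ := hP.ne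
    refine ⟨_, EV.eich_mem (ν := ν) hx'D (Submodule.zero_mem _) hxD,
      (EV.of_mem hx' hν).sing_eich hx, ?_, ?_⟩
    · rw [eich_zero_apply, f_sub_right, f_smul_right, hx.f_self, zero_sub, neg_ne_zero]
      exact mul_ne_zero (P.σ_ne_zero (mul_ne_zero P.ε_ne_zero (mul_ne_zero hν0 (f_symm_ne h0))))
        (f_symm_ne h0)
    · rwa [eich_zero_apply, f_sub_right, f_smul_right, hx'.f_self, mul_zero, sub_zero]
  refine ⟨P.f x z / P.f x' z, div_ne_zero h1 h2, reach_of_f hx (hx'.smul _) hz hxD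
    (Submodule.smul_mem _ _ hx'D) hzD h1 ?_⟩
  rw [P.f_smul_left, div_mul_cancel₀ _ h2]

theorem Max.eq_one (hP : Max P) {D : Submodule F V} (hD : Disjoint D (P.perp D))
    (hs : ∀ e ∈ P.perp D, P.Sing e → e = 0) {g : V ≃ₗ[F] V} (hg : g ∈ P.isom)
    (hdet : LinearMap.det (g : V →ₗ[F] V) = 1) (h : ∀ d ∈ D, g d = d) : g = 1 := by
  have h1 : finrank F (P.perp D) ≤ 1 := by
    by_contra h1
    obtain ⟨e, he, he0, hes⟩ := P.exists_sing (P.perp D) (by have := hP.d_le; omega)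
    exact he0 (hs e he hes)
  obtain ⟨⟨a, ha⟩, h2⟩ := finrank_le_one_iff.1 h1
  have h3 : ∀ y ∈ P.perp D, ∃ c : F, c • a = y := fun y hy =>
    (h2 ⟨y, hy⟩).imp fun c hc => congrArg Subtype.val hc
  suffices h4 : g a = a by
    ext x
    obtain ⟨d, hd, y, hy, rfl⟩ := exists_add_of_disjoint hD x
    obtain ⟨c, rfl⟩ := h3 y hy
    rw [map_add, map_smul, h d hd, h4]; rfl
  by_cases ha0 : a = 0
  · rw [ha0, map_zero]
  have haa : P.f a a ≠ 0 := fun h0 => ha0 (hs a ha (hP.sing h0))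
  obtain ⟨c, hc⟩ := h3 _ (apply_mem_perp hg h ha)
  have : (g : V →ₗ[F] V) = LinearMap.transvection (((c - 1) / P.f a a) • P.fL a) a := by
    ext x
    obtain ⟨d, hd, y, hy, rfl⟩ := exists_add_of_disjoint hD x
    obtain ⟨b, rfl⟩ := h3 y hy
    simp only [LinearEquiv.coe_coe, map_add, map_smul, h d hd, ← hc, LinearMap.transvection.apply,
      LinearMap.smul_apply, fL_apply, f_of_mem_perp' ha hd, smul_eq_mul, div_mul_cancel₀ _ haa]
    module
  rw [this, LinearMap.transvection.det, LinearMap.smul_apply, fL_apply, smul_eq_mul,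
    div_mul_cancel₀ _ haa, add_sub_cancel] at hdet
  rw [← hc, hdet, one_smul]

/-- An isometry of determinant one fixing a non-degenerate subspace `D` pointwise is a product of
Eichler transformations of `D^⊥`. -/
theorem Max.mem_ED (hP : Max P) {D : Submodule F V} (hD : Disjoint D (P.perp D))
    {g : V ≃ₗ[F] V} (hg : g ∈ fixE P D) : g ∈ ED P D := by
  induction hn : finrank F (P.perp D) using Nat.strong_induction_on generalizing D g with
  | _ n ih =>
  by_cases hs : ∀ e ∈ P.perp D, P.Sing e → e = 0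
  · rw [hP.eq_one hD hs (E_le_isom hg.1) (det_of_mem_E hg.1) hg.2]; exact Subgroup.one_mem _
  push Not at hs
  obtain ⟨e, heD, he, he0⟩ := hs
  have hnD : ∀ x ∈ P.perp D, x ≠ 0 → x ∉ D := fun x hx h0 h =>
    h0 (Submodule.disjoint_def.1 hD x h hx)
  obtain ⟨e', he'D, he', h1⟩ := he.exists_partner heD (hnD e heD he0)
  have hD' := disjoint_hyp hD he he' heD he'D h1
  have step : ∀ g ∈ fixE P D, ∀ c : F, g e = c • e →
      ∃ k ∈ ED P D, (k * g) e = c • e ∧ P.σ c • (k * g) e' = e' := fun g hg c hc => by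
    have hi := E_le_isom hg.1
    have h2 : P.f (P.σ c • g e') e = 1 := by
      rw [P.f_smul_left, ← f_smul_right, ← hc, isom_f hi, h1]
    obtain ⟨k, hk, h3, h4⟩ := exists_ED_map ((he'.map hi).smul (P.σ c)) he' he
      (Submodule.smul_mem _ _ (apply_mem_perp hi hg.2 he'D)) he'D heD
      (by rw [h2]; exact one_ne_zero) (by rw [h1, h2])
    exact ⟨k, hk, by rw [mul_apply', hc, map_smul, h4], by rw [mul_apply', ← map_smul, h3]⟩
  have fin : ∀ g ∈ fixE P D, g e = e → g ∈ ED P D := fun g hg h => by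
    obtain ⟨k, hk, h2, h3⟩ := step g hg 1 (by rw [h, one_smul])
    rw [one_smul] at h2
    rw [map_one, one_smul] at h3
    have h4 := (fixE P D).mul_mem (ED_le_fixE D hk) hg
    exact ((ED P D).mul_mem_cancel_left hk).1 (ED_anti (le_sup_left.trans le_sup_left)
      (ih _ (hn ▸ finrank_perp_hyp_lt heD h1) hD' ⟨h4.1, fix_hyp h4.2 h2 h3⟩ rfl))
  have hi := E_le_isom hg.1
  have hge := apply_mem_perp hi hg.2 heD
  obtain ⟨c, hc, k, hk, h2⟩ := hP.reach (he.map hi) he hge heD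
    (hnD _ hge (by simpa using he0)) (hnD e heD he0)
  have hkg := (fixE P D).mul_mem (ED_le_fixE D hk) hg
  obtain ⟨l, hl, h3⟩ : Reach P D (c • e) e := by
    by_cases h0 : P.perp ((D ⊔ F ∙ e) ⊔ F ∙ e') = ⊥
    · obtain ⟨l, hl, h3, h4⟩ := step _ hkg c h2
      have h5 := (fixE P D).mul_mem (ED_le_fixE D hl) hkg
      have h6 : (l * (k * g)) e' = (P.σ c)⁻¹ • e' := by
        rw [eq_inv_smul_iff₀ (P.σ_ne_zero hc), h4]
      have h7 : ((l * (k * g) : V ≃ₗ[F] V) : V →ₗ[F] V) =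
          LinearMap.transvection (((c - 1) * P.ε) • P.fL e') e ∘ₗ
            LinearMap.transvection (((P.σ c)⁻¹ - 1) • P.fL e) e' := by
        ext x
        have hx : x ∈ (D ⊔ F ∙ e) ⊔ F ∙ e' := by
          rw [← perp_perp (P := P) (_ ⊔ _), h0, perp_bot]; trivial
        obtain ⟨_, hs, b, rfl⟩ := mem_sup_span.1 hx
        obtain ⟨d, hd, a, rfl⟩ := mem_sup_span.1 hs
        simp only [LinearEquiv.coe_coe, map_add, map_smul, h5.2 d hd, h3, h6, LinearMap.comp_apply,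
          LinearMap.transvection.apply, LinearMap.smul_apply, fL_apply, f_of_mem_perp' heD hd,
          f_of_mem_perp' he'D hd, smul_eq_mul, he.f_self, he'.f_self, h1, f_symm_one h1,
          mul_assoc, P.ε_sq]
        module
      have h8 := det_of_mem_E h5.1
      rw [h7, LinearMap.det_comp, LinearMap.transvection.det, LinearMap.transvection.det] at h8
      simp only [LinearMap.smul_apply, fL_apply, smul_eq_mul, h1, f_symm_one h1, mul_assoc, P.ε_sq,
        mul_one, add_sub_cancel, mul_inv_eq_one₀ (P.σ_ne_zero hc)] at h8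
      obtain ⟨ν, hν, hν0⟩ := hP.ne
      refine reach_smul he heD he'D h1 (Submodule.zero_mem _) (Submodule.zero_mem _)
        (EV.of_mem he' hν) (EV.of_mem he' (hP.max _ ?_)) (P.f_zero_left _) (P.f_zero_left _) hν0 hc
      rw [map_mul, ← h8]
      linear_combination c * P.Λ_le ν hν
    · obtain ⟨x, hx, hx0⟩ := Submodule.exists_mem_ne_zero_of_ne_bot h0
      obtain ⟨y, hy, hxy⟩ := P.exists_perp_f_right
        (fun h => hx0 (Submodule.disjoint_def.1 hD' x h hx)) 1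
      have key : ∀ ν, ∃ z ∈ P.perp D, P.f z e = 0 ∧ P.EV e' z ν := fun ν => by
        obtain ⟨a, b, hab⟩ := hP.rep x y (by rw [hxy]; exact one_ne_zero) ν
        have := Submodule.add_mem _ (Submodule.smul_mem _ a hx) (Submodule.smul_mem _ b hy)
        rw [mem_perp_sup_span, mem_perp_sup_span] at this
        exact ⟨_, this.1.1, this.1.2, he', this.2, hab⟩
      obtain ⟨z₁, a₁, b₁, c₁⟩ := key 1
      obtain ⟨z₂, a₂, b₂, c₂⟩ := key (c * 1)
      exact reach_smul he heD he'D h1 a₁ a₂ c₁ c₂ b₁ b₂ one_ne_zero hc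
  refine ((ED P D).mul_mem_cancel_left hk).1 (((ED P D).mul_mem_cancel_left hl).1
    (fin _ ((fixE P D).mul_mem (ED_le_fixE D hl) hkg) ?_))
  rw [mul_apply', mul_apply', h2, h3]

end Cfsg.Agent.H98.PFC
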