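import Cfsg.Agent.H18.RfSc
import Cfsg.Agent.H42.Cls
import Cfsg.Agent.H42.Six
import Cfsg.Agent.H42.Code

/-! Project RF: an extremal offender on the even cocode module contains the class of a tetrad. -/

set_option autoImplicit false

namespace Cfsg.Agent.H98.RfOffT

open Cfsg Subgroup Cfsg.Agent.H18.Rf
open Cfsg.Agent.H48 (IsWord)
open Cfsg.Agent.H42 hiding cj card_cj mem_cj
open scoped symmDiff Pointwise

universe u

theorem comm_of_sq {G : Type*} [Group G] {A : Subgroup G} (h : ∀ a ∈ A, a * a = 1) {a b : G}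
    (ha : a ∈ A) (hb : b ∈ A) : a * b = b * a := by
  have h1 := h _ (A.mul_mem ha hb)
  have h2 := h a ha
  have h3 := h b hb
  calc a * b = a * (a * b * (a * b)) * b := by rw [h1, mul_one]
    _ = (a * a) * (b * a) * (b * b) := by simp only [mul_assoc]
    _ = b * a := by rw [h2, h3, one_mul, mul_one]

theorem exists_oct (F : Subgroup M24) (sq : ∀ x ∈ F, x * x = 1) (hc : 16 < Nat.card F) :
    ∃ x ∈ F, x ≠ 1 ∧ fixSet x ∈ octads := by
  by_contra hn
  push Not at hn
  have free : ∀ x ∈ F, ∀ p : GolayPt, x • p = p → x = 1 := by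
    intro x hx p hp
    by_contra h1
    have ho : orderOf x = 2 := orderOf_eq_prime (by rw [pow_two, sq x hx]) h1
    obtain ⟨k, rfl⟩ := conj_z24 ho (Finset.card_ne_zero.2 ⟨p, mem_fixSet.2 hp⟩)
    apply hn _ hx h1
    rw [fixSet_conj, fixSet_z24]
    exact (msmul_mem_octads_iff k).2 oct0_mem
  have inj : Function.Injective fun x : F => (x : M24) • (none : GolayPt) := by
    intro x y e
    have e' : (x : M24) • (none : GolayPt) = (y : M24) • (none : GolayPt) := e
    have := free ((y : M24)⁻¹ * x) (F.mul_mem (F.inv_mem y.2) x.2) none (by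
      rw [mul_smul, e', inv_smul_smul])
    exact Subtype.ext (inv_mul_eq_one.1 this).symm
  have h24 : Nat.card F ≤ 24 := by
    have := Nat.card_le_card_of_injective _ inj
    rwa [Nat.card_eq_fintype_card (α := GolayPt), card_pt] at this
  have hp : IsPGroup 2 F := fun x => ⟨1, Subtype.ext (by
    show (x : M24) ^ (2 ^ 1) = 1
    rw [pow_one, pow_two, sq x x.2])⟩
  obtain ⟨k, hk⟩ := IsPGroup.iff_card.1 hp
  rw [hk] at hc h24
  have h1 : 4 < k := (Nat.pow_lt_pow_iff_right (by norm_num : 1 < 2)).1 (by simpa using hc)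
  have h2 : 2 ^ 5 ≤ 2 ^ k := Nat.pow_le_pow_right (by norm_num) h1
  omega

theorem card_le_sixteen (F : Subgroup M24) (sq : ∀ x ∈ F, x * x = 1) {x : M24} (hx : x ∈ F)
    (ho : fixSet x ∈ octads)
    (h : ∀ y ∈ F, ∀ a ∈ fixSet x, ∀ b ∈ fixSet x, a ≠ b →
      (({a, b} : Finset GolayPt) ∆ (y • ({a, b} : Finset GolayPt))).card ≠ 4) :
    Nat.card F ≤ 16 := by
  rw [← card_fixing_octad ho]
  refine card_le_of_le fun y hy => ?_
  rw [mem_fixingSubgroup_iff]
  intro a ha
  by_contra hne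
  have ha' : y • a ∈ fixSet x := by
    rw [mem_fixSet, ← mul_smul, comm_of_sq sq hx hy, mul_smul, mem_fixSet.1 ha]
  have yy : ∀ p : GolayPt, y • y • p = p := fun p => by rw [← mul_smul, sq y hy, one_smul]
  have hE : (((fixSet x).erase a).erase (y • a)).card = 6 := by
    rw [Finset.card_erase_of_mem (Finset.mem_erase.2 ⟨hne, ha'⟩), Finset.card_erase_of_mem ha,
      ((mem_octads_iff _).1 ho).2]
  refine hne (fix_octad_of_six ho hE
    ((Finset.erase_subset _ _).trans (Finset.erase_subset _ _)) (fun b hb => ?_) a ha)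
  obtain ⟨b1, hb⟩ := Finset.mem_erase.1 hb
  obtain ⟨b2, hb⟩ := Finset.mem_erase.1 hb
  by_contra b3
  apply h y hy a ha b hb b2.symm
  have c := card_symmDiff_add ({a, b} : Finset GolayPt) (y • ({a, b} : Finset GolayPt))
  have c2 : ({a, b} : Finset GolayPt).card = 2 := Finset.card_pair b2.symm
  have c3 : (y • ({a, b} : Finset GolayPt)).card = 2 := by rw [Finset.card_smul_finset, c2]
  have c4 : ({a, b} : Finset GolayPt) ∩ (y • ({a, b} : Finset GolayPt)) = ∅ := by
    rw [Finset.eq_empty_iff_forall_notMem]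
    intro p hp
    obtain ⟨p1, p2⟩ := Finset.mem_inter.1 hp
    obtain ⟨q, q1, q2⟩ := Finset.mem_smul_finset.1 p2
    simp only [Finset.mem_insert, Finset.mem_singleton] at p1 q1
    rcases p1 with rfl | rfl <;> rcases q1 with rfl | rfl
    · exact hne q2
    · exact b1 (by rw [← q2, yy])
    · exact b1 q2.symm
    · exact b3 q2
  rw [c4, c2, c3] at c
  simpa using c

theorem card_duads (S : Finset (Finset GolayPt)) (h2 : ∀ s ∈ S, s.card = 2)
    (hi : ∀ s ∈ S, ∀ t ∈ S, (s ∆ t).card ≠ 4)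
    (hc : ∀ s ∈ S, ∀ t ∈ S, (s ∆ t).card = 2 → s ∆ t ∈ S) : S.card ≤ 6 := by
  by_cases h1 : S.card ≤ 1
  · omega
  obtain ⟨s, hs, t, ht, hst⟩ := Finset.one_lt_card.1 (not_le.1 h1)
  have meet : ∀ a ∈ S, ∀ b ∈ S, ∃ p, p ∈ a ∧ p ∈ b := by
    intro a ha b hb
    have c := card_symmDiff_add a b
    have := hi a ha b hb
    rw [h2 a ha, h2 b hb] at c
    obtain ⟨p, hp⟩ := Finset.card_pos.1 (show 0 < (a ∩ b).card by omega)
    exact ⟨p, Finset.mem_inter.1 hp⟩
  have hd : s ∆ t ∈ S := by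
    apply hc s hs t ht
    have c := card_symmDiff_add s t
    have := hi s hs t ht
    rw [h2 s hs, h2 t ht] at c
    have h0 : (s ∆ t).card ≠ 0 := by
      rw [Finset.card_ne_zero, Finset.nonempty_iff_ne_empty, ← Finset.bot_eq_empty, ne_eq,
        symmDiff_eq_bot]
      exact hst
    omega
  have sub : S ⊆ Finset.powersetCard 2 (s ∪ t) := by
    intro a ha
    rw [Finset.mem_powersetCard]
    refine ⟨fun y hy => ?_, h2 a ha⟩
    by_contra hn
    rw [Finset.mem_union, not_or] at hn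
    obtain ⟨p, p1, p2⟩ := meet a ha s hs
    obtain ⟨q, q1, q2⟩ := meet a ha t ht
    obtain ⟨r, r1, r2⟩ := meet a ha _ hd
    obtain ⟨u, v, -, rfl⟩ := Finset.card_eq_two.1 (h2 a ha)
    simp only [Finset.mem_insert, Finset.mem_singleton] at hy p1 q1 r1
    rw [Finset.mem_symmDiff] at r2
    rcases hy with rfl | rfl <;> rcases p1 with rfl | rfl <;> rcases q1 with rfl | rfl <;>
      rcases r1 with rfl | rfl <;> tauto
  have c := Finset.card_le_card sub
  rw [Finset.card_powersetCard] at c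
  have c4 : (s ∪ t).card ≤ 4 := (Finset.card_union_le s t).trans (by rw [h2 s hs, h2 t ht])
  exact c.trans (Nat.choose_le_choose 2 c4)

variable {G : Type u} [Group G] [Finite G] {V : Subgroup G} {ρ : NN V →* M24}
  {ψ : Finset GolayPt → G}

theorem card_inf_le (S : St V ρ) (T : Tod V ρ ψ) (Y : Subgroup G)
    (hn : ∀ t : Finset GolayPt, t.card = 4 → ψ t ∉ Y) : Nat.card ↥(Y ⊓ V) ≤ 7 := by
  classical
  let A : Finset (Finset GolayPt) := Finset.univ.filter fun s => s.card = 2 ∧ ψ s ∈ Y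
  have mA : ∀ s, s ∈ A ↔ s.card = 2 ∧ ψ s ∈ Y := fun s => by simp [A]
  have add : ∀ s ∈ A, ∀ t ∈ A, ψ (s ∆ t) ∈ Y := fun s hs t ht => by
    rw [T.add s t (by rw [((mA s).1 hs).1]; decide) (by rw [((mA t).1 ht).1]; decide)]
    exact Y.mul_mem ((mA s).1 hs).2 ((mA t).1 ht).2
  have hA : A.card ≤ 6 := card_duads A (fun s hs => ((mA s).1 hs).1)
    (fun s hs t ht h => hn _ h (add s hs t ht)) (fun s hs t ht h => (mA _).2 ⟨h, add s hs t ht⟩)
  have sub : ((Y ⊓ V : Subgroup G) : Set G) ⊆ ((insert 1 (A.image ψ) : Finset G) : Set G) := by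
    intro v hv
    obtain ⟨c, hc, rfl⟩ := T.sur v hv.2
    obtain ⟨t, ht, hw⟩ := exists_leader c
    have c1 := card_symmDiff_add c t
    have c2 := card_codeSets hw
    have et : Even t.card := by
      rw [Nat.even_iff] at hc ⊢
      omega
    have e1 : ψ (c ∆ t) = 1 := (T.ker _ (by rw [Nat.even_iff]; omega)).2 hw
    rw [T.add c t hc et, ← S.el _ (T.mem t et), mul_left_inj] at e1
    have hY : ψ t ∈ Y := e1 ▸ hv.1
    rw [e1, Finset.coe_insert, Set.mem_insert_iff]
    have h4 : t.card ≠ 4 := fun h => hn t h hY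
    by_cases h0 : t.card = 0
    · left
      rw [Finset.card_eq_zero] at h0
      subst h0
      exact (T.ker ∅ (by simp)).2 H48.isWord_empty
    · right
      rw [Nat.even_iff] at et
      exact Finset.mem_coe.2 (Finset.mem_image_of_mem ψ ((mA t).2 ⟨by omega, hY⟩))
  rw [← SetLike.coe_sort_coe, Nat.card_coe_set_eq]
  refine (Set.ncard_le_ncard sub (Finset.finite_toSet _)).trans ?_
  rw [Set.ncard_coe_finset]
  exact (Finset.card_insert_le _ _).trans (by have := Finset.card_image_le (s := A) (f := ψ); omega)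

theorem count {X Y : Subgroup G} (el : ∀ v ∈ V, v * v = 1) (O : Off V X Y) :
    Nat.card V * Nat.card ↥(Y ⊓ V) ≤ Nat.card X * Nat.card X := by
  obtain ⟨y, hy, hyV⟩ := SetLike.not_le_iff_exists.1 O.ny
  have cj : ∀ t ∈ V, y * t * y⁻¹ ∈ V := fun t ht => (mem_normalizer_iff.1 (O.yn hy) t).1 ht
  let φ : V →* V :=
    { toFun := fun t => ⟨t * y * (t : G)⁻¹ * y⁻¹, O.xa (O.all t t.2 y hy)⟩
      map_one' := Subtype.ext (by simp)
      map_mul' := fun s t => Subtype.ext (by
        have h1 := comm_of_sq el (cj _ (V.inv_mem s.2)) (O.xa (O.all t t.2 y hy))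
        show (s : G) * t * y * ((s : G) * t)⁻¹ * y⁻¹ =
          s * y * (s : G)⁻¹ * y⁻¹ * (t * y * (t : G)⁻¹ * y⁻¹)
        calc _ = s * ((t * y * (t : G)⁻¹ * y⁻¹) * (y * (s : G)⁻¹ * y⁻¹)) := by group
          _ = _ := by rw [← h1]; group) }
  have hDX : Y ⊓ V ≤ X := fun d hd => (O.xc d hd.2).2 fun z hz =>
    Y.mul_mem (Y.mul_mem (Y.mul_mem hd.1 hz) (Y.inv_mem hd.1)) (Y.inv_mem hz)
  have h1 : ((Y ⊓ V).subgroupOf V).comap φ ≤ X.subgroupOf V := by
    intro t ht
    by_contra hn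
    exact hyV (O.inj t t.2 hn y hy ht.1)
  have h2 : φ.range ≤ X.subgroupOf V := by
    rintro _ ⟨t, rfl⟩
    exact O.all t t.2 y hy
  have h3 : (X.subgroupOf V).index ≤ ((Y ⊓ V).subgroupOf V).relIndex (X.subgroupOf V) := by
    refine (index_antitone h1).trans ?_
    rw [index_comap]
    exact relIndex_le_of_le_right h2 (by
      rw [relIndex]; exact index_ne_zero_of_finite)
  rw [relIndex_subgroupOf O.xa] at h3
  have h4 := (X.subgroupOf V).card_mul_index
  rw [Nat.card_congr (subgroupOfEquivOfLe O.xa).toEquiv] at h4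
  have h5 := ((Y ⊓ V).subgroupOf X).card_mul_index
  rw [Nat.card_congr (subgroupOfEquivOfLe hDX).toEquiv] at h5
  rw [← h4, mul_assoc]
  refine Nat.mul_le_mul_left _ ?_
  rw [← h5, mul_comm]
  exact Nat.mul_le_mul_left _ h3

theorem offT : OffTStmt.{u} := by
  intro G _ _ V ρ ψ S T X Y O
  by_contra hn
  push Not at hn
  have hD := card_inf_le S T Y hn
  have hc := count S.el O
  let f : Y →* M24 := ρ.comp (inclusion O.yn)
  have hk : f.ker = (Y ⊓ V).subgroupOf Y := by
    ext y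
    rw [MonoidHom.mem_ker, mem_subgroupOf, mem_inf]
    exact (S.ker _).trans ⟨fun h => ⟨y.2, h⟩, fun h => h.2⟩
  have hY := f.ker.card_mul_index
  rw [index_ker, hk, Nat.card_congr (subgroupOfEquivOfLe inf_le_left).toEquiv] at hY
  have sq : ∀ x ∈ f.range, x * x = 1 := by
    rintro _ ⟨y, rfl⟩
    rw [← map_mul, show y * y = 1 from Subtype.ext (O.ye y y.2), map_one]
  have big : 16 < Nat.card f.range := by
    by_contra hle
    rw [O.card, ← hY, S.card] at hc
    have hp : 0 < Nat.card ↥(Y ⊓ V) := Nat.card_pos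
    generalize Nat.card ↥(Y ⊓ V) = d at hc hD hp
    generalize Nat.card f.range = m at hc hle
    have h1 : d * m ≤ d * 16 := Nat.mul_le_mul_left _ (not_lt.1 hle)
    have h2 : d * m ≤ 7 * 16 := h1.trans (Nat.mul_le_mul_right _ hD)
    have h3 := Nat.mul_le_mul h1 h2
    omega
  obtain ⟨_, ⟨y, rfl⟩, y1, yo⟩ := exists_oct f.range sq big
  have yV : (y : G) ∉ V := fun h => y1 ((S.ker _).2 h)
  refine absurd (card_le_sixteen f.range sq ⟨y, rfl⟩ yo ?_) (not_le.2 big)
  rintro _ ⟨z, rfl⟩ a ha b hb hab h4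
  have ev : Even ({a, b} : Finset GolayPt).card := by rw [Finset.card_pair hab]; decide
  have key : ∀ w : Y, ψ {a, b} * w * (ψ {a, b})⁻¹ * (w : G)⁻¹ =
      ψ (({a, b} : Finset GolayPt) ∆ (f w • ({a, b} : Finset GolayPt))) := by
    intro w
    have e := T.act (inclusion O.yn w) _ ev
    rw [T.add _ _ ev (by rw [Finset.card_smul_finset]; exact ev),
      inv_eq_of_mul_eq_one_right (S.el _ (T.mem _ ev))]
    rw [show f w = ρ (inclusion O.yn w) from rfl, ← e]
    simp only [coe_inclusion, mul_assoc]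
  have hX : ψ {a, b} ∈ X := by
    by_contra hx
    refine yV (O.inj _ (T.mem _ ev) hx y y.2 ?_)
    have : f y • ({a, b} : Finset GolayPt) = {a, b} := by
      rw [Finset.smul_finset_insert, Finset.smul_finset_singleton, mem_fixSet.1 ha,
        mem_fixSet.1 hb]
    rw [key y, this, symmDiff_self, Finset.bot_eq_empty, (T.ker ∅ (by simp)).2 H48.isWord_empty]
    exact Y.one_mem
  exact hn _ h4 (key z ▸ (O.xc _ (T.mem _ ev)).1 hX z z.2)

end Cfsg.Agent.H98.RfOffT
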